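import Mathlib.Analysis.SpecialFunctions.Trigonometric.Basic
import Mathlib.NumberTheory.Niven
import Mathlib.Data.Real.Sqrt
import Mathlib.Tactic.LinearCombination

/-!
The arithmetic part of the Feit–Higman theorem.
-/

set_option autoImplicit false

namespace CfsgLib.FeitHigman

open Finset Real

/-- The intersection table of a generalised polygon with parameters `a`, `b` and last row `(c, l)`. -/
def polyTable (d : ℕ) (a b c l : ℝ) (i j : ℕ) : ℝ :=
  if i = 0 then (if j = 1 then (a + 1) * b else 0)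
  else if i < d then
    (if j + 1 = i then 1 else if j = i then b - 1 else if j = i + 1 then a * b else 0)
  else if i = d then (if j + 1 = i then c else if j = i then l else 0)
  else 0

/-- The valencies. -/
noncomputable def polyVal (d : ℕ) (a b c : ℝ) (k : ℕ) : ℝ :=
  if k = 0 then 1 else if k < d then (a + 1) * b * (a * b) ^ (k - 1)
  else (a + 1) * b * (a * b) ^ (k - 1) / c

theorem polyTable_tri (d : ℕ) (a b c l : ℝ) (i k : ℕ) (h : k + 1 < i) :
    polyTable d a b c l i k = 0 := by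
  unfold polyTable
  repeat' split_ifs
  all_goals first | rfl | omega

theorem polyTable_succ {d : ℕ} {a b c l : ℝ} (hc : c ≠ 0) {k : ℕ} (hk : k < d) :
    polyTable d a b c l (k + 1) k ≠ 0 := by
  unfold polyTable
  rw [if_neg (by omega)]
  split_ifs <;> first | exact one_ne_zero | exact hc | omega

theorem polyVal_bal {d : ℕ} (hd : 2 ≤ d) {a b c l : ℝ} (hc : c ≠ 0) :
    ∀ i ≤ d, ∀ j ≤ d, polyVal d a b c i * polyTable d a b c l i j =
      polyVal d a b c j * polyTable d a b c l j i := by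
  have up : ∀ i < d, polyVal d a b c i * polyTable d a b c l i (i + 1) =
      polyVal d a b c (i + 1) * polyTable d a b c l (i + 1) i := by
    intro i hi
    unfold polyVal polyTable
    rcases Nat.eq_zero_or_pos i with rfl | hi0
    · simp [show (1 : ℕ) < d by omega, show d ≠ 0 by omega]
    · obtain ⟨k, rfl⟩ : ∃ k, i = k + 1 := ⟨i - 1, by omega⟩
      by_cases h : k + 1 + 1 < d
      · simp [hi, h, pow_succ, show k + 1 + 1 ≠ k by omega]
        ring
      · have hd' : k + 1 + 1 = d := by omega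
        simp [hd', show d ≠ 0 by omega, hi, show ¬ k + 1 + 1 < d by omega, show d ≠ k by omega,
          show d ≠ k + 1 by omega]
        rw [show d - 1 = k + 1 by omega, pow_succ]
        field_simp
  intro i hi j hj
  rcases lt_trichotomy (i + 1) j with h | h | h
  · rw [polyTable_tri d a b c l j i (by omega)]
    have : polyTable d a b c l i j = 0 := by
      unfold polyTable
      repeat' split_ifs
      all_goals first | rfl | omega
    rw [this]; ring
  · subst h; exact up i (by omega)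
  · rcases lt_trichotomy (j + 1) i with h' | h' | h'
    · rw [polyTable_tri d a b c l i j (by omega)]
      have : polyTable d a b c l j i = 0 := by
        unfold polyTable
        repeat' split_ifs
        all_goals first | rfl | omega
      rw [this]; ring
    · subst h'; exact (up j (by omega)).symm
    · rw [show i = j by omega]

theorem polyTable_sum {d : ℕ} (hd : 2 ≤ d) (a b c l : ℝ) (e : ℕ → ℝ) {i : ℕ} (hi : i ≤ d) :
    ∑ j ∈ range (d + 1), polyTable d a b c l i j * e j =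
      if i = 0 then (a + 1) * b * e 1
      else if i < d then e (i - 1) + (b - 1) * e i + a * b * e (i + 1)
      else c * e (d - 1) + l * e d := by
  rcases Nat.eq_zero_or_pos i with rfl | hi0
  · rw [Finset.sum_eq_single 1]
    · simp [polyTable]
    · intro j _ hj; simp [polyTable, hj]
    · intro h; exact absurd (mem_range.2 (by omega)) h
  rw [if_neg (by omega)]
  by_cases hid : i < d
  · rw [if_pos hid]
    obtain ⟨k, rfl⟩ : ∃ k, i = k + 1 := ⟨i - 1, by omega⟩
    have hsub : ({k, k + 1, k + 1 + 1} : Finset ℕ) ⊆ range (d + 1) := by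
      intro x hx
      simp only [mem_insert, mem_singleton] at hx
      rw [mem_range]; omega
    rw [← Finset.sum_subset hsub]
    · rw [Finset.sum_insert (by simp; omega), Finset.sum_insert (by simp), Finset.sum_singleton]
      simp [polyTable, hid, show k + 1 + 1 ≠ k by omega]
      ring
    · intro x _ hx
      simp only [mem_insert, mem_singleton, not_or] at hx
      simp [polyTable, hid, hx.1, hx.2.1, hx.2.2]
  · rw [if_neg hid]
    have hid' : i = d := by omega
    subst hid'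
    obtain ⟨k, rfl⟩ : ∃ k, i = k + 1 := ⟨i - 1, by omega⟩
    rw [Finset.sum_range_succ, Finset.sum_range_succ, Finset.sum_eq_zero]
    · simp [polyTable]
    · intro x hx
      have := mem_range.1 hx
      simp [polyTable, show x ≠ k by omega, show x ≠ k + 1 by omega]

/-- Rationality of all spectral sums of the table. -/
def SpectralRat (d : ℕ) (a b c l : ℝ) : Prop :=
  ∀ (e : ℕ → ℝ) (θ : ℝ), e 0 = 1 →
    (∀ i ≤ d, ∑ j ∈ range (d + 1), polyTable d a b c l i j * e j = θ * e i) →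
    ∑ k ∈ range (d + 1), polyVal d a b c k * e k ^ 2 ≠ 0 →
    ∃ q : ℚ, ∑ k ∈ range (d + 1), polyVal d a b c k * e k ^ 2 = q

/-- A linear recurrence `v (k + 2) = 2 x v (k + 1) - v k`, and the sum of its squares. -/
theorem sum_sq_rec (x : ℝ) (v : ℕ → ℝ) (hv : ∀ k, v (k + 2) = 2 * x * v (k + 1) - v k) (n : ℕ) :
    2 * (1 - x ^ 2) * ∑ k ∈ range n, v k ^ 2 =
      n * (v 0 ^ 2 + v 1 ^ 2 - 2 * x * v 0 * v 1) +
        ((2 * x * v n - v (n + 1)) ^ 2 - v n ^ 2) / 2 -
        ((2 * x * v 0 - v 1) ^ 2 - v 0 ^ 2) / 2 := by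
  have hI : ∀ k, v k ^ 2 + v (k + 1) ^ 2 - 2 * x * v k * v (k + 1) =
      v 0 ^ 2 + v 1 ^ 2 - 2 * x * v 0 * v 1 := by
    intro k
    induction k with
    | zero => rfl
    | succ k ih => rw [hv k, ← ih]; ring
  induction n with
  | zero => simp
  | succ n ih =>
    rw [Finset.sum_range_succ, mul_add, ih, hv n]
    have := hI n
    push_cast
    linear_combination this

variable {a b : ℝ}

/-- The sequence solving the recurrence. -/
noncomputable def wave (φ v1 : ℝ) (k : ℕ) : ℝ :=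
  cos (k * φ) + (v1 - cos φ) / sin φ * sin (k * φ)

theorem wave_zero (φ v1 : ℝ) : wave φ v1 0 = 1 := by simp [wave]

theorem wave_one {φ : ℝ} (v1 : ℝ) (h : sin φ ≠ 0) : wave φ v1 1 = v1 := by
  simp only [wave, Nat.cast_one, one_mul]
  field_simp
  ring

theorem wave_rec (φ v1 : ℝ) (k : ℕ) :
    wave φ v1 (k + 2) = 2 * cos φ * wave φ v1 (k + 1) - wave φ v1 k := by
  have e1 : ((k + 2 : ℕ) : ℝ) * φ = ((k + 1 : ℕ) : ℝ) * φ + φ := by push_cast; ring
  have e2 : (k : ℝ) * φ = ((k + 1 : ℕ) : ℝ) * φ - φ := by push_cast; ring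
  simp only [wave]
  rw [e1, e2, cos_add, cos_sub, sin_add, sin_sub]
  ring

/-- The eigenvector coming from the recurrence. -/
theorem eig_of_rec {d : ℕ} (hd : 2 ≤ d) (c l x r : ℝ) (hr : r * r = a * b) (hr0 : r ≠ 0)
    (v : ℕ → ℝ) (hv : ∀ k, v (k + 2) = 2 * x * v (k + 1) - v k) (hv0 : v 0 = 1)
    (hv1 : (a + 1) * b * v 1 = (b - 1 + 2 * r * x) * r)
    (hlast : c * r * v (d - 1) + l * v d = (b - 1 + 2 * r * x) * v d) :
    ∀ i ≤ d, ∑ j ∈ range (d + 1), polyTable d a b c l i j * (v j / r ^ j) =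
      (b - 1 + 2 * r * x) * (v i / r ^ i) := by
  intro i hi
  rw [polyTable_sum hd a b c l _ hi]
  split_ifs with h0 h1
  · subst h0
    rw [hv0, pow_one, pow_zero, div_one, mul_one, ← mul_div_assoc, hv1, mul_div_cancel_right₀ _ hr0]
  · obtain ⟨k, rfl⟩ : ∃ k, i = k + 1 := ⟨i - 1, by omega⟩
    rw [Nat.add_sub_cancel, show k + 1 + 1 = k + 2 from rfl, hv k, pow_succ r (k + 1), pow_succ r k,
      ← hr]
    field_simp
    ring
  · obtain ⟨k, rfl⟩ : ∃ k, i = k + 1 := ⟨i - 1, by omega⟩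
    have hk : d = k + 1 := by omega
    subst hk
    rw [Nat.add_sub_cancel] at hlast ⊢
    rw [pow_succ r k]
    field_simp
    linear_combination hlast

/-- The even case: `cos φ` satisfies a rational quadratic condition. -/
theorem even_condition {d : ℕ} (hd : 2 ≤ d) (A B : ℕ) (hA : 2 ≤ A) (hB : 2 ≤ B)
    (h : SpectralRat d A B (A + 1) ((A + 1) * ((B : ℝ) - 1))) {j : ℕ} (hj : 0 < j) (hjd : j < d) :
    ∃ q : ℚ, ((((A : ℝ) - 1) ^ 2 + ((B : ℝ) - 1) ^ 2 * A / B) +
        2 * ((A : ℝ) - 1) * ((B : ℝ) - 1) / B * (√((A : ℝ) * B) * cos (j * π / d))) /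
      (1 - cos (j * π / d) ^ 2) = q := by
  set a : ℝ := (A : ℝ) with ha
  set b : ℝ := (B : ℝ) with hb
  set φ := (j : ℝ) * π / d with hφ
  set x := cos φ with hx
  set r := √(a * b) with hrdef
  have ha2 : (2 : ℝ) ≤ a := by rw [ha]; exact_mod_cast hA
  have hb2 : (2 : ℝ) ≤ b := by rw [hb]; exact_mod_cast hB
  have hr : r * r = a * b := Real.mul_self_sqrt (by positivity)
  have hr0 : r ≠ 0 := (Real.sqrt_pos.2 (by positivity)).ne'
  have hd0 : (0 : ℝ) < d := by exact_mod_cast (by omega : 0 < d)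
  have hφpos : 0 < φ := by positivity
  have hφlt : φ < π := by
    rw [hφ, div_lt_iff₀ hd0, mul_comm π]
    exact mul_lt_mul_of_pos_right (by exact_mod_cast hjd) pi_pos
  have hs : sin φ ≠ 0 := (sin_pos_of_pos_of_lt_pi hφpos hφlt).ne'
  have hx2 : 1 - x ^ 2 ≠ 0 := by
    rw [hx, ← sin_sq φ]; exact pow_ne_zero 2 hs
  set v1 := (b - 1 + 2 * r * x) * r / ((a + 1) * b) with hv1
  set v := wave φ v1 with hv
  have hv1' : (a + 1) * b * v 1 = (b - 1 + 2 * r * x) * r := by
    rw [hv, wave_one v1 hs, hv1]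
    field_simp
  have hdφ : (d : ℝ) * φ = (j : ℝ) * π := by rw [hφ]; field_simp
  have hcd : cos ((d : ℝ) * φ) = (-1) ^ j := by rw [hdφ]; exact cos_nat_mul_pi j
  have hsd : sin ((d : ℝ) * φ) = 0 := by rw [hdφ]; exact sin_nat_mul_pi j
  have hvd : v d = (-1) ^ j := by simp [hv, wave, hcd, hsd]
  have hvd1 : v (d + 1) = (-1) ^ j * v1 := by
    have e : ((d + 1 : ℕ) : ℝ) * φ = (d : ℝ) * φ + φ := by push_cast; ring
    simp only [hv, wave]
    rw [e, cos_add, sin_add, hcd, hsd]
    field_simp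
    ring
  have hvdm : v (d - 1) = (-1) ^ j * (2 * x - v1) := by
    obtain ⟨k, rfl⟩ : ∃ k, d = k + 1 := ⟨d - 1, by omega⟩
    have h1 := wave_rec φ v1 k
    rw [← hv, hvd, show k + 2 = k + 1 + 1 from rfl, hvd1, ← hx] at h1
    rw [Nat.add_sub_cancel]
    linear_combination h1
  have heig := eig_of_rec hd (a + 1) ((a + 1) * (b - 1)) x r hr hr0 v (wave_rec φ v1)
    (wave_zero φ v1) hv1' (by
      rw [hvdm, hvd, hv1]
      field_simp
      linear_combination -(b - 1 + 2 * r * x) * hr)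
  set S := ∑ k ∈ range d, v k ^ 2 with hS
  have hμ : ∑ k ∈ range (d + 1), polyVal d a b (a + 1) k * (v k / r ^ k) ^ 2 =
      (a + 1) / a * S := by
    have hterm : ∀ k ∈ range d, polyVal d a b (a + 1) k * (v k / r ^ k) ^ 2 =
        (a + 1) / a * v k ^ 2 - (if k = 0 then 1 / a else 0) := by
      intro k hk
      rcases Nat.eq_zero_or_pos k with rfl | hk0
      · simp [polyVal, hv, wave_zero]
        field_simp
        ring
      · obtain ⟨i, rfl⟩ : ∃ i, k = i + 1 := ⟨k - 1, by omega⟩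
        simp only [polyVal, Nat.succ_ne_zero, if_false, if_pos (mem_range.1 hk), Nat.add_sub_cancel]
        rw [div_pow, ← pow_mul, mul_comm (i + 1) 2, pow_mul, pow_two r, hr, pow_succ (a * b) i]
        field_simp
        ring
    rw [Finset.sum_range_succ, Finset.sum_congr rfl hterm, Finset.sum_sub_distrib, ← Finset.mul_sum,
      Finset.sum_ite_eq', if_pos (mem_range.2 (by omega))]
    obtain ⟨i, hi⟩ : ∃ i, d = i + 1 := ⟨d - 1, by omega⟩
    simp only [polyVal, show d ≠ 0 by omega, if_false, lt_irrefl, hvd]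
    rw [hi, Nat.add_sub_cancel, div_pow, ← pow_mul, ← pow_mul, mul_comm (i + 1) 2, mul_comm j 2,
      pow_mul, pow_mul, neg_one_sq, one_pow, pow_two r, hr, pow_succ (a * b) i, ← hi]
    field_simp
    ring
  have hSpos : 1 ≤ S := by
    refine le_trans (by rw [hv, wave_zero]; norm_num) (Finset.single_le_sum (f := fun k => v k ^ 2)
      (fun k _ => sq_nonneg _) (mem_range.2 (show 0 < d by omega)))
  obtain ⟨q, hq⟩ := h (fun k => v k / r ^ k) (b - 1 + 2 * r * x) (by simp [hv, wave_zero]) heig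
    (by rw [hμ]; exact (mul_pos (by positivity) (by linarith)).ne')
  rw [hμ] at hq
  have hsum := sum_sq_rec x v (wave_rec φ v1) d
  rw [← hS, hvd, hvd1, show v 0 = 1 from wave_zero φ v1, show v 1 = v1 from wave_one v1 hs] at hsum
  have hj1 : ((-1 : ℝ) ^ j) * ((-1 : ℝ) ^ j) = 1 := by rw [← mul_pow]; norm_num
  have hI : 2 * (1 - x ^ 2) * S = d * (1 + v1 ^ 2 - 2 * x * v1) := by
    linear_combination hsum + (((2 * x - v1) ^ 2 - 1) / 2) * hj1
  refine ⟨2 * (A + 1) * A * q / d - 4 * A, ?_⟩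
  push_cast
  rw [← ha, ← hq, div_eq_iff hx2]
  have hI' : 1 + v1 ^ 2 - 2 * x * v1 = 2 * (1 - x ^ 2) * S / d := by
    rw [eq_div_iff hd0.ne']
    linear_combination -hI
  have e2 : (a + 1) ^ 2 * (1 + v1 ^ 2 - 2 * x * v1) = 4 * a * (1 - x ^ 2) +
      ((a - 1) ^ 2 + (b - 1) ^ 2 * a / b + 2 * (a - 1) * (b - 1) / b * (r * x)) := by
    rw [hv1]
    field_simp
    linear_combination ((b - 1) ^ 2 + 4 * x ^ 2 * (r ^ 2 + a * b) - 4 * x ^ 2 * b * (a + 1)
      + 4 * x * r * (b - 1)) * hr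
  rw [hI'] at e2
  field_simp
  field_simp at e2
  linear_combination -e2

/-- The odd case: `cos φ` is rational. -/
theorem odd_condition {d : ℕ} (hd : 2 ≤ d) (A : ℕ) (hA : 2 ≤ A)
    (h : SpectralRat d A A 1 ((A : ℝ) - 1 + A * A)) :
    ∃ q : ℚ, cos (2 * π / (2 * d + 1 : ℕ)) = q := by
  set a : ℝ := (A : ℝ) with ha
  set m : ℝ := ((2 * d + 1 : ℕ) : ℝ) with hm
  set φ := 2 * π / m with hφ
  set x := cos φ with hx
  have ha2 : (2 : ℝ) ≤ a := by rw [ha]; exact_mod_cast hA
  have hm5 : (5 : ℝ) ≤ m := by rw [hm]; exact_mod_cast (by omega : 5 ≤ 2 * d + 1)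
  have hm0 : (0 : ℝ) < m := by linarith
  have hφpos : 0 < φ := by positivity
  have hφlt : φ < π := by
    rw [hφ, div_lt_iff₀ hm0]
    nlinarith [pi_pos]
  have hs : sin φ ≠ 0 := (sin_pos_of_pos_of_lt_pi hφpos hφlt).ne'
  have hx1 : 1 - x ≠ 0 := by
    intro h0
    have h1 := sin_sq φ
    rw [← hx, show x = 1 by linarith, one_pow, sub_self] at h1
    exact hs (pow_eq_zero_iff two_ne_zero |>.1 h1)
  have hxm : 1 + x ≠ 0 := by
    intro h0
    have h1 := sin_sq φ
    rw [← hx, show x = -1 by linarith, neg_one_sq, sub_self] at h1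
    exact hs (pow_eq_zero_iff two_ne_zero |>.1 h1)
  set v1 := (a - 1 + 2 * a * x) / (a + 1) with hv1
  set v := wave φ v1 with hv
  set t := φ / 2 with ht
  have hst : sin t ≠ 0 := (sin_pos_of_pos_of_lt_pi (by positivity) (by linarith)).ne'
  have hct : cos t ≠ 0 := (cos_pos_of_mem_Ioo ⟨by linarith, by linarith⟩).ne'
  have hφt : φ = 2 * t := by rw [ht]; ring
  have hdφ : (d : ℝ) * φ = π - t := by
    rw [ht, hφ, hm]
    push_cast
    field_simp
    ring
  have hsin2 : sin φ = 2 * sin t * cos t := by rw [hφt, sin_two_mul]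
  have hcos2 : x = 2 * cos t ^ 2 - 1 := by rw [hx, hφt, cos_two_mul]
  have hpy := sin_sq_add_cos_sq t
  have hB : (v1 - x) / sin φ * sin t = (a - 1) / (a + 1) * cos t := by
    rw [hv1, hsin2, hcos2]
    field_simp
    ring
  have hvd : v d = -2 / (a + 1) * cos t := by
    simp only [hv, wave]
    rw [hdφ, cos_pi_sub, sin_pi_sub, ← hx, hB]
    field_simp
    ring
  have hvd1 : v (d + 1) = a * v d := by
    have e : ((d + 1 : ℕ) : ℝ) * φ = t + π := by
      push_cast
      rw [add_mul, one_mul, hdφ, hφt]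
      ring
    rw [hvd]
    simp only [hv, wave]
    rw [e, cos_add_pi, sin_add_pi, ← hx]
    have e2 : (v1 - x) / sin φ * -sin t = -((a - 1) / (a + 1) * cos t) := by
      rw [mul_neg, hB]
    rw [e2]
    field_simp
    ring
  have hlast : v (d - 1) = (2 * x - a) * v d := by
    obtain ⟨k, rfl⟩ : ∃ k, d = k + 1 := ⟨d - 1, by omega⟩
    have h1 := wave_rec φ v1 k
    rw [← hv, show k + 2 = k + 1 + 1 from rfl, hvd1, ← hx] at h1
    rw [Nat.add_sub_cancel]
    linear_combination h1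
  have hv1' : (a + 1) * a * v 1 = (a - 1 + 2 * a * x) * a := by
    rw [hv, wave_one v1 hs, hv1]
    field_simp
  have heig := eig_of_rec hd 1 (a - 1 + a * a) x a rfl (by linarith) v (wave_rec φ v1)
    (wave_zero φ v1) hv1' (by rw [hlast]; ring)
  set S := ∑ k ∈ range (d + 1), v k ^ 2 with hS
  have hμ : ∑ k ∈ range (d + 1), polyVal d a a 1 k * (v k / a ^ k) ^ 2 =
      (a + 1) / a * S - 1 / a := by
    have hterm : ∀ k ∈ range (d + 1), polyVal d a a 1 k * (v k / a ^ k) ^ 2 =
        (a + 1) / a * v k ^ 2 - (if k = 0 then 1 / a else 0) := by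
      intro k _
      rcases Nat.eq_zero_or_pos k with rfl | hk0
      · simp [polyVal, hv, wave_zero]
        field_simp
        ring
      · obtain ⟨i, rfl⟩ : ∃ i, k = i + 1 := ⟨k - 1, by omega⟩
        simp only [polyVal, Nat.succ_ne_zero, if_false, div_one, ite_self, Nat.add_sub_cancel]
        rw [div_pow, ← pow_mul, mul_comm (i + 1) 2, pow_mul, pow_two a, pow_succ (a * a) i]
        field_simp
        ring
    rw [Finset.sum_congr rfl hterm, Finset.sum_sub_distrib, ← Finset.mul_sum,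
      Finset.sum_ite_eq', if_pos (mem_range.2 (by omega))]
  have hSpos : 1 ≤ S := by
    refine le_trans (by rw [hv, wave_zero]; norm_num) (Finset.single_le_sum (f := fun k => v k ^ 2)
      (fun k _ => sq_nonneg _) (mem_range.2 (show 0 < d + 1 by omega)))
  obtain ⟨q, hq⟩ := h (fun k => v k / a ^ k) (a - 1 + 2 * a * x) (by simp [hv, wave_zero]) heig (by
    rw [hμ]
    have h2 : (a + 1) / a * 1 ≤ (a + 1) / a * S := mul_le_mul_of_nonneg_left hSpos (by positivity)
    have h3 : (a + 1) / a * 1 - 1 / a = 1 := by field_simp; ring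
    linarith)
  rw [hμ] at hq
  have hS' : S = ((q : ℝ) * a + 1) / (a + 1) := by
    rw [← hq]
    field_simp
    ring
  have hsum := sum_sq_rec x v (wave_rec φ v1) (d + 1)
  rw [← hS, show v 0 = 1 from wave_zero φ v1, show v 1 = v1 from wave_one v1 hs, hvd1,
    show d + 1 + 1 = d + 2 from rfl,
    (show v (d + 2) = 2 * x * v (d + 1) - v d from wave_rec φ v1 d), hvd1] at hsum
  have hvd2 : v d ^ 2 = 2 * (1 + x) / (a + 1) ^ 2 := by
    rw [hvd, hcos2]
    field_simp
    ring
  have key : (a + 1) ^ 2 * S = 2 * a * (d + 1) + 1 + (a - 1) ^ 2 * m / (2 * (1 - x)) := by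
    have e1 : (a + 1) ^ 2 * (2 * (1 - x ^ 2) * S) = 4 * a * (d + 1) * (1 - x ^ 2) +
        2 * (1 - x ^ 2) + (1 + x) * (a - 1) ^ 2 * m := by
      rw [hsum]
      rw [hm, hv1]
      push_cast
      field_simp
      field_simp at hvd2
      linear_combination (1 - a ^ 2) * hvd2
    rw [← sub_eq_zero]
    have e2 : (2 * (1 - x ^ 2)) * ((a + 1) ^ 2 * S -
        (2 * a * (d + 1) + 1 + (a - 1) ^ 2 * m / (2 * (1 - x)))) = 0 := by
      field_simp
      linear_combination (1 - x) * e1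
    refine (mul_eq_zero.1 e2).resolve_left ?_
    rw [show (1 : ℝ) - x ^ 2 = (1 - x) * (1 + x) by ring]
    exact mul_ne_zero two_ne_zero (mul_ne_zero hx1 hxm)
  set w : ℚ := ((A : ℚ) + 1) * (q * A + 1) - (2 * A * (d + 1) + 1) with hw
  have hkey : (a - 1) ^ 2 * m / (2 * (1 - x)) = (w : ℝ) := by
    rw [hw, hS'] at *
    push_cast
    rw [← ha]
    field_simp
    field_simp at key
    linear_combination -key
  have hnum : (a - 1) ^ 2 * m ≠ 0 := mul_ne_zero (pow_ne_zero 2 (by linarith)) hm0.ne'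
  have hw0 : (w : ℝ) ≠ 0 := by
    rw [← hkey]
    exact div_ne_zero hnum (mul_ne_zero two_ne_zero hx1)
  refine ⟨1 - ((A : ℚ) - 1) ^ 2 * (2 * d + 1 : ℕ) / (2 * w), ?_⟩
  push_cast
  rw [← ha]
  have hm' : (2 * (d : ℝ) + 1) = m := by rw [hm]; push_cast; ring
  rw [hm']
  field_simp
  field_simp at hkey
  linear_combination hkey

/-- A rational `cos (2 π / n)` forces `n ∈ {1, 2, 3, 4, 6}`. -/
theorem eq_of_rat_cos {n : ℕ} (hn : 2 ≤ n) (h : ∃ q : ℚ, cos (2 * π / n) = q) :
    n = 2 ∨ n = 3 ∨ n = 4 ∨ n = 6 := by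
  have h' : ∃ q : ℚ, cos (((2 / n : ℚ) : ℝ) * π) = q := by
    obtain ⟨q, hq⟩ := h
    refine ⟨q, ?_⟩
    rw [← hq]
    push_cast
    ring_nf
  have hmem := niven_angle_div_pi_eq h' ⟨by positivity, by
    rw [div_le_one (by exact_mod_cast (show 0 < n by omega))]
    exact_mod_cast hn⟩
  simp only [Set.mem_insert_iff, Set.mem_singleton_iff] at hmem
  have hn0 : (n : ℚ) ≠ 0 := by exact_mod_cast (show n ≠ 0 by omega)
  rcases hmem with h | h | h | h | h <;> field_simp at h
  · norm_num at h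
  · right; right; right; exact_mod_cast h.symm
  · right; right; left; exact_mod_cast (by linarith : (n : ℚ) = 4)
  · right; left; exact_mod_cast (by linarith : (n : ℚ) = 3)
  · left; exact_mod_cast h.symm

/-- The even case of Feit–Higman. -/
theorem even_bound {d : ℕ} (hd : 2 ≤ d) (A B : ℕ) (hA : 2 ≤ A) (hB : 2 ≤ B)
    (h : SpectralRat d A B (A + 1) ((A + 1) * ((B : ℝ) - 1))) : d ≤ 4 := by
  by_contra hlt
  set r := √((A : ℝ) * B) with hr
  have hAB : (2 : ℝ) ≤ (A : ℝ) ∧ (2 : ℝ) ≤ (B : ℝ) := ⟨by exact_mod_cast hA, by exact_mod_cast hB⟩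
  set Kq : ℚ := ((A : ℚ) - 1) ^ 2 + ((B : ℚ) - 1) ^ 2 * A / B with hKq
  set Lq : ℚ := 2 * ((A : ℚ) - 1) * ((B : ℚ) - 1) / B with hLq
  have hA2 : (2 : ℚ) ≤ A := by exact_mod_cast hA
  have hB2 : (2 : ℚ) ≤ B := by exact_mod_cast hB
  have hK : 0 < Kq := by
    have : 0 < ((A : ℚ) - 1) ^ 2 := pow_pos (by linarith) 2
    have : 0 ≤ ((B : ℚ) - 1) ^ 2 * A / B := by positivity
    linarith
  have hL : Lq ≠ 0 := div_ne_zero (mul_ne_zero (mul_ne_zero two_ne_zero (by linarith)) (by linarith))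
    (by linarith)
  have hcond : ∀ j, 0 < j → j < d → ∃ q : ℚ,
      ((Kq : ℝ) + (Lq : ℝ) * (r * cos (j * π / d))) / (1 - cos (j * π / d) ^ 2) = q := by
    intro j hj hjd
    obtain ⟨q, hq⟩ := even_condition hd A B hA hB h hj hjd
    refine ⟨q, ?_⟩
    rw [← hq, hKq, hLq, hr]
    push_cast
    ring
  obtain ⟨q, hq⟩ := hcond 1 one_pos (by omega)
  obtain ⟨q', hq'⟩ := hcond (d - 1) (by omega) (by omega)
  set x := cos ((1 : ℕ) * π / d) with hx
  have hd0 : (0 : ℝ) < d := by exact_mod_cast (show 0 < d by omega)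
  have hx' : cos (((d - 1 : ℕ) : ℝ) * π / d) = -x := by
    rw [hx, ← cos_pi_sub, Nat.cast_sub (by omega : 1 ≤ d)]
    congr 1
    push_cast
    field_simp
  rw [hx', neg_sq] at hq'
  have hsum : 2 * (Kq : ℝ) / (1 - x ^ 2) = ((q + q' : ℚ) : ℝ) := by
    push_cast
    rw [← hq, ← hq']
    ring
  have hs : 1 - x ^ 2 ≠ 0 := by
    rw [hx, ← sin_sq]
    refine pow_ne_zero 2 (sin_pos_of_pos_of_lt_pi (by positivity) ?_).ne'
    rw [div_lt_iff₀ hd0, Nat.cast_one, one_mul]
    have h1 : (1 : ℝ) < d := by exact_mod_cast (show 1 < d by omega)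
    calc π = π * 1 := (mul_one π).symm
      _ < π * d := mul_lt_mul_of_pos_left h1 pi_pos
  have hqq : ((q + q' : ℚ) : ℝ) ≠ 0 := by
    rw [← hsum]
    have : (Kq : ℝ) ≠ 0 := by exact_mod_cast hK.ne'
    exact div_ne_zero (mul_ne_zero two_ne_zero this) hs
  have hx2 : x ^ 2 = ((1 - 2 * Kq / (q + q') : ℚ) : ℝ) := by
    push_cast at hsum hqq ⊢
    field_simp
    field_simp at hsum
    linear_combination hsum
  have hd6 : d = 6 := by
    have := eq_of_rat_cos hd ⟨2 * (1 - 2 * Kq / (q + q')) - 1, by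
      push_cast
      rw [show 2 * π / d = 2 * ((1 : ℕ) * π / d) by push_cast; ring, cos_two_mul, ← hx, hx2]
      push_cast
      ring⟩
    omega
  subst hd6
  obtain ⟨q2, hq2⟩ := hcond 2 (by norm_num) (by norm_num)
  rw [show ((2 : ℕ) : ℝ) * π / ((6 : ℕ) : ℝ) = π / 3 by push_cast; ring, cos_pi_div_three] at hq2
  have hrrat : r = ((((3 : ℚ) / 4 * q2 - Kq) * 2 / Lq : ℚ) : ℝ) := by
    have hL' : (Lq : ℝ) ≠ 0 := by exact_mod_cast hL
    push_cast
    field_simp
    field_simp at hq2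
    linear_combination 2 * hq2
  set rq : ℚ := ((3 : ℚ) / 4 * q2 - Kq) * 2 / Lq
  have hrq0 : rq ≠ 0 := by
    intro h0
    rw [h0, Rat.cast_zero] at hrrat
    have : 0 < (A : ℝ) * B := mul_pos (by linarith [hAB.1]) (by linarith [hAB.2])
    exact (Real.sqrt_pos.2 this).ne' (hr ▸ hrrat)
  have hxrat : x = (((q * (1 - (1 - 2 * Kq / (q + q'))) - Kq) / (Lq * rq) : ℚ) : ℝ) := by
    have hL' : (Lq : ℝ) * (rq : ℝ) ≠ 0 := mul_ne_zero (by exact_mod_cast hL) (by exact_mod_cast hrq0)
    have e := (div_eq_iff hs).1 hq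
    rw [hrrat, hx2] at e
    push_cast at e ⊢
    rw [eq_div_iff hL']
    linear_combination e
  have hx3 : x = cos (π / 6) := by rw [hx]; push_cast; ring_nf
  rw [cos_pi_div_six] at hx3
  have hirr : Irrational (√(3 : ℝ)) := by
    have := Nat.Prime.irrational_sqrt (p := 3) Nat.prime_three
    simpa using this
  refine hirr ⟨2 * ((q * (1 - (1 - 2 * Kq / (q + q'))) - Kq) / (Lq * rq)), ?_⟩
  push_cast at hxrat ⊢
  linarith [hxrat, hx3]

/-- The odd case of Feit–Higman. -/
theorem odd_bound {d : ℕ} (hd : 2 ≤ d) (A : ℕ) (hA : 2 ≤ A)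
    (h : SpectralRat d A A 1 ((A : ℝ) - 1 + A * A)) : False := by
  have := eq_of_rat_cos (n := 2 * d + 1) (by omega) (odd_condition hd A hA h)
  omega

end CfsgLib.FeitHigman
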