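import Mathlib.LinearAlgebra.Trace
import Mathlib.LinearAlgebra.Matrix.ToLin
import Mathlib.Data.Real.Basic
import Mathlib.LinearAlgebra.Dimension.Finite
import Mathlib.LinearAlgebra.FiniteDimensional.Basic

/-!
Tridiagonal association schemes: an eigenvector of the intersection table gives a scaled idempotent,
so the corresponding sum of squares is rational.
-/

set_option autoImplicit false

namespace CfsgLib.FeitHigman

open Matrix Finset

/-- A matrix equal to a scalar times an idempotent, with trace `card X`, has rational scalar. -/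
theorem rational_of_sq_eq_smul {X : Type*} [Fintype X] [DecidableEq X] [Nonempty X]
    (E : Matrix X X ℝ) (μ : ℝ) (hμ : μ ≠ 0) (hE : E * E = μ • E) (hd : ∀ x, E x x = 1) :
    ∃ q : ℚ, μ = q := by
  set M := μ⁻¹ • E with hM
  have hMM : M * M = M := by
    rw [hM, Matrix.smul_mul, Matrix.mul_smul, hE, smul_smul, smul_smul]
    congr 1
    field_simp
  set f := Matrix.toLin' M with hf
  have hff : ∀ v, f (f v) = f v := fun v => by
    rw [hf, ← LinearMap.comp_apply, ← Matrix.toLin'_mul, hMM]
  have hproj : LinearMap.IsProj (LinearMap.range f) f :=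
    ⟨fun v => LinearMap.mem_range_self f v, by rintro _ ⟨w, rfl⟩; exact hff w⟩
  have htr := hproj.trace
  rw [hf, Matrix.trace_toLin'_eq, hM, Matrix.trace_smul] at htr
  have hE1 : E.trace = Fintype.card X := by
    simp [Matrix.trace, hd]
  rw [hE1, smul_eq_mul] at htr
  set r := Module.finrank ℝ (LinearMap.range (Matrix.toLin' (μ⁻¹ • E))) with hr
  have hr0 : (r : ℝ) ≠ 0 := by
    rw [← htr]
    exact mul_ne_zero (inv_ne_zero hμ) (by simp)
  refine ⟨(Fintype.card X : ℚ) / (r : ℚ), ?_⟩
  push_cast
  rw [eq_div_iff hr0, ← htr]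
  field_simp

/-- Rationality of the sum `∑ n e ²` for an eigenvector `e` of a tridiagonal intersection table. -/
theorem rational_of_tridiagonal {X : Type*} [Fintype X] [DecidableEq X] [Nonempty X] (d : ℕ)
    (A : Matrix X X ℝ) (D : X → X → ℕ) (T : ℕ → ℕ → ℝ) (n e : ℕ → ℝ) (θ : ℝ)
    (hD : ∀ x y, D x y ≤ d) (hD0 : ∀ x y, D x y = 0 ↔ x = y)
    (hA : ∀ x z, ∀ k ≤ d, ∑ y, (if D x y = k then A z y else 0) = T (D x z) k)
    (htri : ∀ i k, k + 1 < i → T i k = 0) (hsucc : ∀ k < d, T (k + 1) k ≠ 0)
    (heig : ∀ i ≤ d, ∑ j ∈ range (d + 1), T i j * e j = θ * e i)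
    (hbal : ∀ i ≤ d, ∀ j ≤ d, n i * T i j = n j * T j i) (hn : n 0 = 1) (he : e 0 = 1)
    (hμ : ∑ k ∈ range (d + 1), n k * e k ^ 2 ≠ 0) :
    ∃ q : ℚ, ∑ k ∈ range (d + 1), n k * e k ^ 2 = q := by
  let R : ℕ → Matrix X X ℝ := fun k => Matrix.of fun z x => if D x z = k then 1 else 0
  let E : Matrix X X ℝ := Matrix.of fun z x => e (D x z)
  have hEsum : E = ∑ k ∈ range (d + 1), e k • R k := by
    ext z x
    simp [E, R, Matrix.sum_apply, Finset.sum_ite_eq, Nat.lt_succ_iff.2 (hD x z)]
  have hAR : ∀ k ≤ d, A * R k = ∑ i ∈ range (d + 1), T i k • R i := by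
    intro k hk
    ext z x
    simp [R, Matrix.mul_apply, Matrix.sum_apply, Finset.sum_ite_eq,
      Nat.lt_succ_iff.2 (hD x z), hA x z k hk]
  have hAE : A * E = θ • E := by
    have h1 : ∀ k ∈ range (d + 1), A * (e k • R k) = ∑ i ∈ range (d + 1), (T i k * e k) • R i := by
      intro k hk
      rw [Matrix.mul_smul, hAR k (Nat.lt_succ_iff.1 (mem_range.1 hk)), Finset.smul_sum]
      exact Finset.sum_congr rfl fun i _ => by rw [smul_smul, mul_comm]
    rw [hEsum, Matrix.mul_sum, Finset.sum_congr rfl h1, Finset.sum_comm, Finset.smul_sum]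
    refine Finset.sum_congr rfl fun i hi => ?_
    rw [← Finset.sum_smul, heig i (Nat.lt_succ_iff.1 (mem_range.1 hi)), smul_smul]
  have hRE : ∀ k ≤ d, R k * E = (n k * e k) • E := by
    intro k
    induction k using Nat.strong_induction_on with
    | _ k ih =>
      intro hk
      rcases Nat.eq_zero_or_pos k with rfl | hk0
      · have : R 0 = 1 := by
          ext z x
          simp [R, Matrix.one_apply, hD0, eq_comm]
        rw [this, one_mul, hn, he, one_mul, one_smul]
      obtain ⟨k, rfl⟩ : ∃ j, k = j + 1 := ⟨k - 1, by omega⟩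
      have hA1 : A * R k * E = (n k * e k * θ) • E := by
        rw [mul_assoc, ih k (by omega) (by omega), Matrix.mul_smul, hAE, smul_smul]
      rw [hAR k (by omega), Finset.sum_mul] at hA1
      have hbal' : ∑ i ∈ range (d + 1), T i k * (n i * e i) = n k * e k * θ := by
        calc ∑ i ∈ range (d + 1), T i k * (n i * e i)
            = n k * ∑ i ∈ range (d + 1), T k i * e i := by
              rw [Finset.mul_sum]
              refine Finset.sum_congr rfl fun i hi => ?_
              linear_combination e i * hbal i (Nat.lt_succ_iff.1 (mem_range.1 hi)) k (by omega)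
          _ = _ := by rw [heig k (by omega)]; ring
      have hsplit : ∀ i ∈ range (d + 1), i ≠ k + 1 →
          (T i k • R i) * E - (T i k * (n i * e i)) • E = 0 := by
        intro i hi hne
        rcases Nat.lt_or_ge (k + 1) i with h | h
        · rw [htri i k h]; simp
        · rw [Matrix.smul_mul, ih i (by omega) (by have := mem_range.1 hi; omega), smul_smul,
            sub_self]
      have hz : ∑ i ∈ range (d + 1), ((T i k • R i) * E - (T i k * (n i * e i)) • E) = 0 := by
        rw [Finset.sum_sub_distrib, hA1, ← Finset.sum_smul, hbal', sub_self]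
      rw [Finset.sum_eq_single (k + 1) hsplit (fun h => absurd (mem_range.2 (by omega)) h),
        Matrix.smul_mul, sub_eq_zero, ← smul_smul] at hz
      exact smul_right_injective _ (hsucc k (by omega)) hz
  refine rational_of_sq_eq_smul E _ hμ ?_ (fun x => ?_)
  · conv_lhs => rw [hEsum, Finset.sum_mul]
    rw [← hEsum, Finset.sum_smul]
    refine Finset.sum_congr rfl fun k hk => ?_
    rw [Matrix.smul_mul, hRE k (Nat.lt_succ_iff.1 (mem_range.1 hk)), smul_smul]
    congr 1
    ring
  · simp [E, (hD0 x x).2 rfl, he]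

end CfsgLib.FeitHigman
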