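import Cfsg.Agent.Lib.BNPair.RankTwo
import Cfsg.Agent.Lib.FeitHigman.Spectral
import Cfsg.Agent.Lib.FeitHigman.Arith

/-!
The generalised polygon of a (B,N)-pair of rank two.
-/

set_option autoImplicit false

namespace CfsgLib.FeitHigman

open CfsgLib.BNPair Finset

variable {G : Type*} [Group G] [Finite G] {P : Cfsg.BNPair G} {s r : G}

/-- The distance index of a group element relative to the panel of `s`. -/
noncomputable def half (P : Cfsg.BNPair G) (s r : G) (g : G) : ℕ := (level P s r g + 1) / 2

theorem half_mul_right (h : Duo P s r) {p : G} (hp : p ∈ P.parabolic {s}) (g : G) :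
    half P s r (g * p) = half P s r g := by
  have key : ∀ g : G, ∀ p ∈ P.parabolic {s}, level P s r (g * p) = level P s r g ∨
      (level P s r g % 2 = 1 ∧ level P s r (g * p) = level P s r g + 1) ∨
      (level P s r g % 2 = 0 ∧ level P s r (g * p) + 1 = level P s r g) := by
    intro g p hp
    classical
    set k := level P s r g with hk
    set j := level P s r (g * p) with hj
    let f : ℕ → ℝ := fun i => if i = j then 1 else 0
    have hsame := h.panelSum_mul (t := s) f g hp
    have hpos : 1 ≤ panelSum P s r s f g := by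
      rw [← hsame]
      rcases mem_parabolic_singleton h.hs hp with _ | _ <;>
      · unfold panelSum
        letI : Fintype (Panel P s) := Fintype.ofFinite _
        refine le_trans ?_ (Finset.single_le_sum
          (f := fun v : Panel P s => f (level P s r (g * p * (v.out : G))))
          (fun v _ => by simp only [f]; split_ifs <;> norm_num)
          (Finset.mem_univ (QuotientGroup.mk 1 : Panel P s)))
        have h1 : ((QuotientGroup.mk 1 : Panel P s).out : G) ∈ P.B := by
          have := QuotientGroup.eq.1
            (QuotientGroup.out_eq' (QuotientGroup.mk 1 : Panel P s)).symm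
          simpa [Subgroup.mem_subgroupOf] using this
        show (1 : ℝ) ≤ f (level P s r (g * p * _))
        rw [h.level_right h1, ← hj]
        simp [f]
    rcases Nat.eq_zero_or_pos k with h0 | h0
    · rw [h.panelSum_base f g (hk ▸ h0)] at hpos
      left
      by_contra hne
      simp [f, show 0 ≠ j by omega] at hpos
      linarith
    by_cases hpar : k % 2 = 1
    · have hn : nextLetter s r k = s := by
        simp [nextLetter, Nat.even_iff, hpar]
      have e := h.panelSum_next f g
      rw [← hk, hn] at e
      rw [e] at hpos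
      by_contra hcon
      push Not at hcon
      obtain ⟨hne, h1, -⟩ := hcon
      have h1' := h1 hpar
      have : (if k + 1 < maxLen P then k + 1 else k) ≠ j := by split_ifs <;> omega
      simp [f, this, show k ≠ j by omega] at hpos
      linarith
    · obtain ⟨i, hi⟩ : ∃ i, k = i + 1 := ⟨k - 1, by omega⟩
      have hn : nextLetter s r i = s := by
        simp [nextLetter, Nat.even_iff, show i % 2 = 1 by omega]
      have e := h.panelSum_prev f g (k := i) (hk ▸ hi)
      rw [hn] at e
      rw [e] at hpos
      by_contra hcon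
      push Not at hcon
      obtain ⟨hne, -, h2⟩ := hcon
      have h2' := h2 (by omega)
      simp [f, show i ≠ j by omega, show i + 1 ≠ j by omega] at hpos
      linarith
  unfold half
  rcases key g p hp with e | ⟨e1, e2⟩ | ⟨e1, e2⟩ <;> omega

theorem half_left (h : Duo P s r) {p : G} (hp : p ∈ P.parabolic {s}) (g : G) :
    half P s r (p * g) = half P s r g := by
  unfold half
  rw [h.level_left hp]

/-- The inner panel sum. -/
noncomputable def rowInner (P : Cfsg.BNPair G) (r : G) (M : ℕ) (φ : ℕ → ℝ) (k : ℕ) : ℝ :=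
  if k % 2 = 0 then φ ((k + 1) / 2) + qpar P r * φ (((if k + 1 < M then k + 1 else k) + 1) / 2)
  else φ ((k - 1 + 1) / 2) + qpar P r * φ ((k + 1) / 2)

theorem inner_eq (h : Duo P s r) (φ : ℕ → ℝ) (g : G) :
    panelSum P s r r (fun k => φ ((k + 1) / 2)) g =
      rowInner P r (maxLen P) φ (level P s r g) := by
  unfold rowInner
  split_ifs with hpar hlt
  · have e := h.panelSum_next (fun k => φ ((k + 1) / 2)) g
    rw [show nextLetter s r (level P s r g) = r by simp [nextLetter, Nat.even_iff, hpar],
      if_pos hlt] at e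
    exact e
  · have e := h.panelSum_next (fun k => φ ((k + 1) / 2)) g
    rw [show nextLetter s r (level P s r g) = r by simp [nextLetter, Nat.even_iff, hpar],
      if_neg hlt] at e
    exact e
  · obtain ⟨i, hi⟩ : ∃ i, level P s r g = i + 1 := ⟨level P s r g - 1, by omega⟩
    have e := h.panelSum_prev (fun k => φ ((k + 1) / 2)) g hi
    rw [show nextLetter s r i = r by simp [nextLetter, Nat.even_iff, show i % 2 = 0 by omega]] at e
    rw [hi]
    exact e

/-- The row identity. -/
theorem row_eq (h : Duo P s r) {d : ℕ} (hd : 2 ≤ d) {c l : ℝ}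
    (hcl : (maxLen P = 2 * d ∧ c = qpar P s + 1 ∧ l = ((qpar P s : ℝ) + 1) * ((qpar P r : ℝ) - 1)) ∨
      (maxLen P = 2 * d + 1 ∧ c = 1 ∧ l = (qpar P r : ℝ) - 1 + qpar P s * qpar P r))
    (φ : ℕ → ℝ) (g : G) :
    panelSum P s r s (rowInner P r (maxLen P) φ) g - ((qpar P s : ℝ) + 1) * φ (half P s r g) =
      ∑ j ∈ range (d + 1), polyTable d (qpar P s) (qpar P r) c l (half P s r g) j * φ j := by
  have hlt := h.level_lt g
  have hhd : half P s r g ≤ d := by
    unfold half
    rcases hcl with ⟨hM, -⟩ | ⟨hM, -⟩ <;> omega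
  rw [polyTable_sum hd _ _ _ _ _ hhd]
  set a : ℝ := (qpar P s : ℝ)
  set b : ℝ := (qpar P r : ℝ)
  set k := level P s r g with hk
  have hM4 : 4 ≤ maxLen P := by rcases hcl with ⟨hM, -⟩ | ⟨hM, -⟩ <;> omega
  rcases Nat.eq_zero_or_pos k with h0 | h0
  · rw [h.panelSum_base _ g (hk ▸ h0), show half P s r g = 0 by simp [half, ← hk, h0], if_pos rfl]
    simp only [rowInner, if_pos (show (0 + 1 : ℕ) < maxLen P by omega)]
    norm_num
    ring
  -- the gate index
  have hi : ∃ i, 1 ≤ i ∧ half P s r g = i ∧ 2 * i - 1 < maxLen P ∧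
      panelSum P s r s (rowInner P r (maxLen P) φ) g = rowInner P r (maxLen P) φ (2 * i - 1) +
        a * rowInner P r (maxLen P) φ (if 2 * i < maxLen P then 2 * i else 2 * i - 1) := by
    by_cases hpar : k % 2 = 1
    · have e := h.panelSum_next (rowInner P r (maxLen P) φ) g
      rw [← hk, show nextLetter s r k = s by simp [nextLetter, Nat.even_iff, hpar]] at e
      refine ⟨(k + 1) / 2, by omega, rfl, by omega, ?_⟩
      rw [show 2 * ((k + 1) / 2) = k + 1 by omega, Nat.add_sub_cancel]
      exact e
    · obtain ⟨i, hii⟩ : ∃ i, k = i + 1 := ⟨k - 1, by omega⟩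
      have e := h.panelSum_prev (rowInner P r (maxLen P) φ) g (k := i) (hk ▸ hii)
      rw [show nextLetter s r i = s by simp [nextLetter, Nat.even_iff, show i % 2 = 1 by omega]] at e
      refine ⟨(k + 1) / 2, by omega, rfl, by omega, ?_⟩
      rw [show 2 * ((k + 1) / 2) = k by omega, if_pos hlt, hii, Nat.add_sub_cancel]
      exact e
  obtain ⟨i, hi1, hih, hiM, e⟩ := hi
  rw [e, hih, if_neg (show i ≠ 0 by omega)]
  obtain ⟨i, rfl⟩ : ∃ j, i = j + 1 := ⟨i - 1, by omega⟩
  have hodd : rowInner P r (maxLen P) φ (2 * (i + 1) - 1) = φ i + b * φ (i + 1) := by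
    simp only [rowInner, show ¬ (2 * (i + 1) - 1) % 2 = 0 by omega, if_false]
    rw [show (2 * (i + 1) - 1 - 1 + 1) / 2 = i by omega,
      show (2 * (i + 1) - 1 + 1) / 2 = i + 1 by omega]
  rw [hodd, Nat.add_sub_cancel]
  by_cases htop : 2 * (i + 1) < maxLen P
  · have heven : rowInner P r (maxLen P) φ (2 * (i + 1)) = φ (i + 1) +
        b * φ (if 2 * (i + 1) + 1 < maxLen P then i + 2 else i + 1) := by
      simp only [rowInner, show (2 * (i + 1)) % 2 = 0 by omega, if_true]
      rw [show (2 * (i + 1) + 1) / 2 = i + 1 by omega]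
      congr 2
      split_ifs <;> congr 1 <;> omega
    rw [if_pos htop, heven]
    by_cases hid : i + 1 < d
    · rw [if_pos hid, if_pos (by rcases hcl with ⟨hM, -⟩ | ⟨hM, -⟩ <;> omega)]
      ring
    · rcases hcl with ⟨hM, -, -⟩ | ⟨hM, hc, hl⟩
      · omega
      · rw [if_neg hid, if_neg (by omega), show d - 1 = i by omega, show d = i + 1 by omega, hc, hl]
        ring
  · rw [if_neg htop, hodd]
    rcases hcl with ⟨hM, hc, hl⟩ | ⟨hM, -, -⟩
    · rw [if_neg (by omega), show d - 1 = i by omega, show d = i + 1 by omega, hc, hl]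
      ring
    · omega

/-- The spectral sums of a (B,N)-pair of rank two are rational. -/
theorem spectralRat_of_duo (h : Duo P s r) {d : ℕ} (hd : 2 ≤ d) {c l : ℝ}
    (hcl : (maxLen P = 2 * d ∧ c = qpar P s + 1 ∧ l = ((qpar P s : ℝ) + 1) * ((qpar P r : ℝ) - 1)) ∨
      (maxLen P = 2 * d + 1 ∧ c = 1 ∧ l = (qpar P r : ℝ) - 1 + qpar P s * qpar P r)) :
    SpectralRat d (qpar P s) (qpar P r) c l := by
  classical
  intro e θ he heig hμ
  set H := P.parabolic {s}
  letI : Fintype (G ⧸ H) := Fintype.ofFinite _
  letI : Fintype (Panel P s) := Fintype.ofFinite _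
  letI : Fintype (Panel P r) := Fintype.ofFinite _
  have : Nonempty (G ⧸ H) := ⟨QuotientGroup.mk 1⟩
  let D : G ⧸ H → G ⧸ H → ℕ := fun x y => half P s r (x.out⁻¹ * y.out)
  let A : Matrix (G ⧸ H) (G ⧸ H) ℝ := Matrix.of fun z y =>
    (∑ u : Panel P s, ∑ v : Panel P r,
      if (QuotientGroup.mk (z.out * (u.out : G) * (v.out : G)) : G ⧸ H) = y then (1 : ℝ) else 0) -
      ((qpar P s : ℝ) + 1) * (if z = y then 1 else 0)
  have hc0 : c ≠ 0 := by
    rcases hcl with ⟨-, hc, -⟩ | ⟨-, hc, -⟩ <;> rw [hc] <;> positivity
  have hDmk : ∀ x g, D x (QuotientGroup.mk g) = half P s r (x.out⁻¹ * g) := by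
    intro x g
    obtain ⟨p, hp⟩ := QuotientGroup.mk_out_eq_mul H g
    show half P s r (x.out⁻¹ * (QuotientGroup.mk g : G ⧸ H).out) = _
    rw [hp, ← mul_assoc, half_mul_right h p.2]
  refine rational_of_tridiagonal d A D _ (polyVal d (qpar P s) (qpar P r) c) e θ ?_ ?_ ?_
    (polyTable_tri d _ _ c l) (fun k hk => polyTable_succ hc0 hk) heig
    (polyVal_bal hd hc0) (by simp [polyVal]) he hμ
  · intro x y
    have := h.level_lt (x.out⁻¹ * y.out)
    show (_ + 1) / 2 ≤ d
    rcases hcl with ⟨hM, -⟩ | ⟨hM, -⟩ <;> omega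
  · intro x y
    constructor
    · intro hxy
      have h0 : level P s r (x.out⁻¹ * y.out) = 0 := by
        have : (level P s r (x.out⁻¹ * y.out) + 1) / 2 = 0 := hxy
        omega
      rw [← QuotientGroup.out_eq' x, ← QuotientGroup.out_eq' y]
      exact QuotientGroup.eq.2 (h.level_eq_zero.1 h0)
    · rintro rfl
      show (_ + 1) / 2 = 0
      rw [inv_mul_cancel, h.level_eq_zero.2 (Subgroup.one_mem _)]
  · intro x z k hk
    let φ : ℕ → ℝ := fun j => if j = k then 1 else 0
    have e1 : ∀ y, (if D x y = k then A z y else 0) =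
        (∑ u : Panel P s, ∑ v : Panel P r,
          if (QuotientGroup.mk (z.out * (u.out : G) * (v.out : G)) : G ⧸ H) = y then
            φ (D x y) else 0) -
        ((qpar P s : ℝ) + 1) * (if z = y then φ (D x y) else 0) := by
      intro y
      simp only [φ]
      by_cases hy : D x y = k
      · simp [hy, A]
      · simp [hy]
    rw [Finset.sum_congr rfl fun y _ => e1 y, Finset.sum_sub_distrib, ← Finset.mul_sum,
      Finset.sum_comm]
    rw [Finset.sum_congr rfl fun u _ => Finset.sum_comm]
    simp only [Finset.sum_ite_eq, Finset.mem_univ, if_true, hDmk]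
    have e2 : ∑ u : Panel P s, ∑ v : Panel P r,
        φ (half P s r (x.out⁻¹ * (z.out * (u.out : G) * (v.out : G)))) =
        panelSum P s r s (rowInner P r (maxLen P) φ) (x.out⁻¹ * z.out) := by
      refine Finset.sum_congr rfl fun u _ => ?_
      rw [← inner_eq h φ]
      refine Finset.sum_congr rfl fun v _ => ?_
      simp only [half, mul_assoc]
    rw [e2, show D x z = half P s r (x.out⁻¹ * z.out) from rfl, row_eq h hd hcl φ,
      Finset.sum_eq_single k]
    · simp [φ]
    · intro j _ hj
      simp [φ, hj]
    · intro hk'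
      exact absurd (mem_range.2 (by omega)) hk'

open Classical in
/-- The number of elements of level `k`. -/
noncomputable def levelCount (P : Cfsg.BNPair G) (s r : G) (k : ℕ) : ℝ :=
  letI : Fintype G := Fintype.ofFinite G
  ∑ g : G, if level P s r g = k then (1 : ℝ) else 0

theorem levelCount_succ (h : Duo P s r) {k : ℕ} (hk : k + 1 < maxLen P) :
    levelCount P s r (k + 1) = qpar P (nextLetter s r k) * levelCount P s r k := by
  classical
  letI : Fintype G := Fintype.ofFinite G
  set t := nextLetter s r k with ht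
  letI : Fintype (Panel P t) := Fintype.ofFinite _
  let f : ℕ → ℝ := fun i => if i = k + 1 then 1 else 0
  have hsum : ∑ g : G, panelSum P s r t f g =
      ((qpar P t : ℝ) + 1) * ∑ g : G, f (level P s r g) := by
    unfold panelSum
    have hinner : ∀ v : Panel P t, ∑ g : G, f (level P s r (g * (v.out : G))) =
        ∑ g : G, f (level P s r g) := fun v =>
      Equiv.sum_comp (Equiv.mulRight ((Quotient.out v : P.parabolic {t}) : G))
        (fun g => f (level P s r g))
    rw [Finset.sum_comm, Finset.sum_congr rfl (fun v _ => hinner v),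
      Finset.sum_const, Finset.card_univ, ← Nat.card_eq_fintype_card, card_panel, nsmul_eq_mul]
    push_cast
    ring
  have hval : ∀ g : G, panelSum P s r t f g = (qpar P t : ℝ) *
      ((if level P s r g = k then 1 else 0) + (if level P s r g = k + 1 then 1 else 0)) := by
    intro g
    set L := level P s r g with hL
    have hLM := h.level_lt g
    by_cases hn : nextLetter s r L = t
    · have e := h.panelSum_next f g
      rw [← hL, hn] at e
      rw [e]
      have hne : L ≠ k + 1 := by
        intro e'
        rw [e', ht] at hn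
        rcases Nat.even_or_odd k with hk' | hk'
        · simp [nextLetter, hk', Nat.even_add_one] at hn
          exact h.ne hn
        · simp [nextLetter, Nat.not_even_iff_odd.2 hk', Nat.even_add_one] at hn
          exact h.ne hn.symm
      by_cases hLk : L = k
      · simp [f, hLk, hk]
      · simp [f, hne, hLk]
        intro h1
        split_ifs at h1 <;> omega
    · rcases Nat.eq_zero_or_pos L with h0 | h0
      · have hts : t = s := by
          rcases Nat.even_or_odd k with hk' | hk'
          · exfalso
            apply hn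
            simp [ht, h0, nextLetter, hk']
          · simp [ht, nextLetter, Nat.not_even_iff_odd.2 hk']
        have hkL : L ≠ k := fun e => hn (e ▸ rfl)
        rw [hts, h.panelSum_base f g (hL ▸ h0)]
        simp [f, h0, show 0 ≠ k by omega]
      · obtain ⟨i, hi⟩ : ∃ i, L = i + 1 := ⟨L - 1, by omega⟩
        have hti : nextLetter s r i = t := by
          rcases h.cover t (h.next_mem k) with e1 | e1 <;>
          rcases Nat.even_or_odd i with h2 | h2
          · exfalso; apply hn
            simp [hi, nextLetter, h2, e1, Nat.even_add_one]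
          · simp [nextLetter, Nat.not_even_iff_odd.2 h2, e1]
          · simp [nextLetter, h2, e1]
          · exfalso; apply hn
            simp [hi, nextLetter, Nat.not_even_iff_odd.2 h2, e1, Nat.even_add_one]
        have e := h.panelSum_prev f g (k := i) (hL ▸ hi)
        rw [hti] at e
        rw [e]
        have hne : L ≠ k := fun e' => hn (e' ▸ rfl)
        have hne2 : i ≠ k + 1 := by
          intro e'
          rw [e', ht] at hti
          rcases Nat.even_or_odd k with hk' | hk'
          · simp [nextLetter, hk', Nat.even_add_one] at hti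
            exact h.ne hti
          · simp [nextLetter, Nat.not_even_iff_odd.2 hk', Nat.even_add_one] at hti
            exact h.ne hti.symm
        simp [f, hne2, hi, show i + 1 ≠ k by omega]
  rw [Finset.sum_congr rfl fun g _ => hval g, ← Finset.mul_sum, Finset.sum_add_distrib] at hsum
  unfold levelCount
  simp only [f] at hsum
  linear_combination -hsum

theorem levelCount_sum (h : Duo P s r) {d : ℕ} (hM : maxLen P = 2 * d + 1) :
    (Nat.card G : ℝ) = levelCount P s r 0 * ((1 + (qpar P r : ℝ)) *
      ∑ i ∈ range d, ((qpar P s : ℝ) * qpar P r) ^ i + ((qpar P s : ℝ) * qpar P r) ^ d) := by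
  classical
  have htot : (Nat.card G : ℝ) = ∑ k ∈ range (maxLen P), levelCount P s r k := by
    letI : Fintype G := Fintype.ofFinite G
    simp only [levelCount]
    rw [Finset.sum_comm, Nat.card_eq_fintype_card, ← Finset.card_univ,
      Finset.cast_card]
    refine Finset.sum_congr rfl fun g _ => ?_
    rw [Finset.sum_ite_eq, if_pos (mem_range.2 (h.level_lt g))]
  have hval : ∀ i ≤ d, levelCount P s r (2 * i) =
      levelCount P s r 0 * ((qpar P s : ℝ) * qpar P r) ^ i := by
    intro i hi
    induction i with
    | zero => simp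
    | succ i ih =>
      rw [show 2 * (i + 1) = 2 * i + 1 + 1 by ring, levelCount_succ h (by omega),
        levelCount_succ h (by omega), ih (by omega),
        show nextLetter s r (2 * i + 1) = s by simp [nextLetter, Nat.even_iff],
        show nextLetter s r (2 * i) = r by simp [nextLetter]]
      ring
  have hpart : ∀ n ≤ d, ∑ k ∈ range (2 * n + 1), levelCount P s r k =
      levelCount P s r 0 * ((1 + (qpar P r : ℝ)) *
        ∑ i ∈ range n, ((qpar P s : ℝ) * qpar P r) ^ i + ((qpar P s : ℝ) * qpar P r) ^ n) := by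
    intro n hn
    induction n with
    | zero => simp
    | succ n ih =>
      rw [show 2 * (n + 1) + 1 = 2 * n + 1 + 1 + 1 by ring, Finset.sum_range_succ,
        Finset.sum_range_succ, ih (by omega), levelCount_succ h (k := 2 * n) (by omega),
        show 2 * n + 1 + 1 = 2 * (n + 1) by ring, hval (n + 1) hn, hval n (by omega),
        show nextLetter s r (2 * n) = r by simp [nextLetter], Finset.sum_range_succ]
      ring
  rw [htot, hM, hpart d le_rfl]

theorem levelCount_zero (h : Duo P s r) :
    levelCount P s r 0 = ((qpar P s : ℝ) + 1) * Nat.card P.B := by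
  classical
  letI : Fintype G := Fintype.ofFinite G
  unfold levelCount
  rw [Finset.sum_boole]
  have e : (Finset.univ.filter fun g : G => level P s r g = 0).card =
      Nat.card (P.parabolic {s}) := by
    rw [← Nat.card_eq_finsetCard]
    exact Nat.card_congr (Equiv.subtypeEquivRight fun g => by simp [h.level_eq_zero])
  rw [e, Subgroup.card_eq_card_quotient_mul_card_subgroup (P.B.subgroupOf (P.parabolic {s})),
    Nat.card_congr (Subgroup.subgroupOfEquivOfLe (B_le_parabolic (P := P) {s})).toEquiv]
  show (((Nat.card (Panel P s)) * Nat.card P.B : ℕ) : ℝ) = _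
  rw [card_panel]
  push_cast
  ring

theorem qpar_eq_of_odd (h : Duo P s r) {d : ℕ} (hM : maxLen P = 2 * d + 1) :
    qpar P s = qpar P r := by
  have e1 := levelCount_sum h hM
  have e2 := levelCount_sum h.symm hM
  rw [levelCount_zero h] at e1
  rw [levelCount_zero h.symm, mul_comm (qpar P r : ℝ) (qpar P s : ℝ)] at e2
  set a : ℝ := (qpar P s : ℝ) with ha
  set b : ℝ := (qpar P r : ℝ) with hb
  have hB : (Nat.card P.B : ℝ) ≠ 0 := by exact_mod_cast (Nat.card_pos (α := P.B)).ne'
  have h3 : (a - b) * ((a * b) ^ d * (Nat.card P.B : ℝ)) = 0 := by linear_combination e2 - e1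
  have hab : (a * b) ^ d ≠ 0 := by
    refine pow_ne_zero _ (mul_ne_zero ?_ ?_)
    · have := two_le_qpar h.hs; rw [ha]; exact_mod_cast (by omega : qpar P s ≠ 0)
    · have := two_le_qpar h.hr; rw [hb]; exact_mod_cast (by omega : qpar P r ≠ 0)
  have := (mul_eq_zero.1 h3).resolve_right (mul_ne_zero hab hB)
  have h4 : a = b := sub_eq_zero.1 this
  rw [ha, hb] at h4
  exact_mod_cast h4

/-- Feit–Higman for (B,N)-pairs. -/
theorem maxLen_mem (h : Duo P s r) : maxLen P = 2 ∨ maxLen P = 3 ∨ maxLen P = 4 ∨ maxLen P = 6 ∨
    maxLen P = 8 := by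
  have h2 := h.two_le_maxLen
  rcases Nat.even_or_odd' (maxLen P) with ⟨d, hd | hd⟩
  · by_cases hd2 : 2 ≤ d
    · have := even_bound hd2 (qpar P s) (qpar P r) (two_le_qpar h.hs) (two_le_qpar h.hr)
        (spectralRat_of_duo h hd2 (Or.inl ⟨hd, rfl, rfl⟩))
      omega
    · omega
  · by_cases hd2 : 2 ≤ d
    · refine (odd_bound hd2 (qpar P s) (two_le_qpar h.hs) ?_).elim
      have := spectralRat_of_duo h hd2 (c := 1) (Or.inr ⟨hd, rfl, rfl⟩)
      rwa [← qpar_eq_of_odd h hd] at this
    · omega

end CfsgLib.FeitHigman
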